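import Cfsg.Agent.Lib.CharDeep.Schur.Orbit

/-!
# Schur's bound for characters of `p`-groups invariant under power maps
-/

set_option autoImplicit false
set_option linter.unusedSectionVars false

namespace Cfsg.Agent.Lib.CharDeep.Schur

open Subgroup Cfsg Cfsg.Agent.Lib.Char.Basic Cfsg.Agent.Lib.Char.Ortho Cfsg.Agent.Lib.Char.Complete
  Cfsg.Agent.Lib.Char.Linear Cfsg.Agent.Lib.Char.Degree Cfsg.Agent.Lib.Char.Galois
  Cfsg.Agent.Lib.CharDeep.Roquette Cfsg.Agent.Lib.OddChar.GaloisConj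
open scoped ComplexConjugate

universe u

/-- The Schur sum. -/
def A (p N m : ℕ) : ℕ := ∑ i ∈ Finset.range N, m / ((p - 1) * p ^ i)

theorem A_mono (p N : ℕ) {m m' : ℕ} (h : m ≤ m') : A p N m ≤ A p N m' :=
  Finset.sum_le_sum fun _ _ => Nat.div_le_div_right h

theorem A_add (p N m m' : ℕ) : A p N m + A p N m' ≤ A p N (m + m') := by
  unfold A
  rw [← Finset.sum_add_distrib]
  exact Finset.sum_le_sum fun _ _ => Nat.add_div_le_add_div _ _ _

theorem geom (q n : ℕ) : q * ∑ j ∈ Finset.range n, (q + 1) ^ j + 1 = (q + 1) ^ n := by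
  induction n with
  | zero => simp
  | succ n ih =>
    rw [Finset.sum_range_succ, mul_add, pow_succ]
    nlinarith

theorem numeric {p x t u N : ℕ} (hp : p.Prime)
    (h : (p - 1) * x ≤ (p ^ u - 1) + (p - 1) * (t + 1) * p ^ u)
    (hN : (p - 1) * p ^ t * p ^ u < N) : x ≤ A p N ((p - 1) * p ^ t * p ^ u) := by
  obtain ⟨q, rfl⟩ : ∃ q, p = q + 1 := ⟨p - 1, by have := hp.pos; omega⟩
  have hq : 0 < q := by
    have := hp.one_lt
    omega
  simp only [Nat.add_sub_cancel] at h hN ⊢
  have hM : q * (q + 1) ^ t * (q + 1) ^ u = q * (q + 1) ^ (t + u) := by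
    rw [mul_assoc, ← pow_add]
  rw [hM] at hN ⊢
  set s := t + u with hs
  have hG := geom q (s + 1)
  set G := ∑ j ∈ Finset.range (s + 1), (q + 1) ^ j with hGdef
  have hle : G ≤ A (q + 1) N (q * (q + 1) ^ s) := by
    have hsN : s + 1 ≤ N := by
      have h1 : s < (q + 1) ^ s := Nat.lt_pow_self (by omega)
      have h2 : (q + 1) ^ s ≤ q * (q + 1) ^ s := Nat.le_mul_of_pos_left _ hq
      omega
    have h3 : G = ∑ i ∈ Finset.range (s + 1), (q + 1) ^ (s - i) := by
      rw [hGdef, ← Finset.sum_range_reflect]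
      refine Finset.sum_congr rfl fun i hi => ?_
      rw [Finset.mem_range] at hi
      congr 1
    rw [h3]
    unfold A
    simp only [Nat.add_sub_cancel]
    calc ∑ i ∈ Finset.range (s + 1), (q + 1) ^ (s - i)
        = ∑ i ∈ Finset.range (s + 1), q * (q + 1) ^ s / (q * (q + 1) ^ i) := by
          refine Finset.sum_congr rfl fun i hi => ?_
          rw [Finset.mem_range] at hi
          rw [Nat.mul_div_mul_left _ _ hq, Nat.pow_div (by omega) (by omega)]
      _ ≤ ∑ i ∈ Finset.range N, q * (q + 1) ^ s / (q * (q + 1) ^ i) :=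
          Finset.sum_le_sum_of_subset (Finset.range_subset_range.mpr hsN)
  have hb : q * (t + 1) + 1 ≤ (q + 1) ^ (t + 1) := by
    have h1 := geom q (t + 1)
    have h2 : t + 1 ≤ ∑ j ∈ Finset.range (t + 1), (q + 1) ^ j := by
      calc t + 1 = ∑ _j ∈ Finset.range (t + 1), 1 := by simp
        _ ≤ _ := Finset.sum_le_sum fun j _ => Nat.one_le_pow _ _ (by omega)
    rw [← h1]
    exact Nat.succ_le_succ (Nat.mul_le_mul_left _ h2)
  have hf : 1 ≤ (q + 1) ^ u := Nat.one_le_pow _ _ (by omega)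
  have h4 : (q + 1) ^ (s + 1) = (q + 1) ^ u * (q + 1) ^ (t + 1) := by
    rw [← pow_add]
    congr 1
    omega
  have h5 : q * x ≤ q * G := by
    have h6 : (q + 1) ^ u * (q * (t + 1) + 1) ≤ (q + 1) ^ u * (q + 1) ^ (t + 1) :=
      Nat.mul_le_mul_left _ hb
    rw [← h4, ← hG] at h6
    have h7 : q * (t + 1) * (q + 1) ^ u = (q + 1) ^ u * (q * (t + 1)) := by ring
    rw [h7] at h
    rw [mul_add, mul_one] at h6
    omega
  exact (Nat.le_of_mul_le_mul_left h5 hq).trans hle

variable {P : Type u} [Group P] [Fintype P]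

/-- A central element of order `p` in the kernel-free situation gives a primitive root. -/
theorem exists_primitive_mem_fld {X : Type u} [Group X] [Finite X] {p : ℕ} [hp : Fact p.Prime]
    {φ : X → ℂ} (hφ : IsIrrCharacter X φ) (hfaith : ∀ x, φ x = φ 1 → x = 1) {z : X}
    (hz : z ∈ center X) (hzo : orderOf z = p) : ∃ ω ∈ Fld φ, IsPrimitiveRoot ω p := by
  have h0 := irr_one_ne_zero hφ
  obtain ⟨m, ρ, hρ, rfl⟩ := hφ
  haveI := hρ
  obtain ⟨ω, hω⟩ := Cfsg.Agent.Lib.Char.Central.center_acts_scalar ρ z hz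
  have htr : ρ.character z = ω * ρ.character 1 := by
    simp only [Representation.character, map_one, hω, map_smul, smul_eq_mul]
  have hωF : ω ∈ Fld ρ.character := by
    have h1 : ω = ρ.character z / ρ.character 1 := by
      rw [htr]
      field_simp
    rw [h1]
    exact div_mem (mem_Fld _ _) (mem_Fld _ _)
  have hω1 : ω ≠ 1 := by
    rintro rfl
    rw [one_mul] at htr
    have := hfaith z htr
    rw [this, orderOf_one] at hzo
    exact hp.out.one_lt.ne hzo
  have hωp : ω ^ p = 1 := by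
    have h1 : ρ (z ^ p) = ω ^ p • (1 : Module.End ℂ (Fin m → ℂ)) := by
      rw [map_pow, hω, smul_pow, one_pow]
    have h2 : z ^ p = 1 := by rw [← hzo, pow_orderOf_eq_one]
    rw [h2, map_one] at h1
    have h3 := congrArg (LinearMap.trace ℂ (Fin m → ℂ)) h1
    simp only [map_smul, smul_eq_mul] at h3
    have h4 : LinearMap.trace ℂ (Fin m → ℂ) 1 = ρ.character 1 := by
      simp [Representation.character]
    rw [h4] at h3
    have h5 : ρ.character 1 * 1 = ω ^ p * ρ.character 1 := by rw [mul_one]; exact h3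
    rw [mul_comm] at h5
    exact (mul_right_cancel₀ h0 h5).symm
  refine ⟨ω, hωF, ?_⟩
  have h6 : orderOf ω = p := orderOf_eq_prime hωp hω1
  exact h6 ▸ IsPrimitiveRoot.orderOf ω

/-- Bound for one irreducible character. -/
theorem single_bound {p : ℕ} [hp : Fact p.Prime] (hP : IsPGroup p P) {θ : P → ℂ}
    (hθ : IsIrrCharacter P θ) (N : ℕ)
    (hN : Module.finrank ℚ (Fld θ) * charDegree θ < N) :
    ∃ x, (charKer (isCharacter_of_isIrrCharacter hθ)).index = p ^ x ∧
      x ≤ A p N (Module.finrank ℚ (Fld θ) * charDegree θ) := by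
  classical
  have hpp : p.Prime := hp.out
  have hθc := isCharacter_of_isIrrCharacter hθ
  let K : Subgroup P := charKer hθc
  let π : P →* P ⧸ K := QuotientGroup.mk' K
  have hπs : Function.Surjective π := QuotientGroup.mk'_surjective _
  obtain ⟨φ, hφ, hθφ⟩ := isIrrCharacter_descend π hπs hθ (fun k hk => by
    have hk' : k ∈ K := by
      have := hk
      rwa [QuotientGroup.ker_mk'] at this
    exact hk')
  have hθφ' : ∀ h : P, θ h = φ (π h) := fun h => congrFun hθφ h
  have hφ1 : φ 1 = θ 1 := by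
    rw [hθφ' 1, map_one]
  obtain ⟨e, he⟩ := IsPGroup.iff_card.mp hP
  have hdvd : K.index ∣ p ^ e := by
    rw [← he]
    exact K.index_dvd_card
  obtain ⟨x, hxe, hx⟩ := (Nat.dvd_prime_pow hpp).mp hdvd
  refine ⟨x, hx, ?_⟩
  rcases Nat.eq_zero_or_pos x with rfl | hxpos
  · exact Nat.zero_le _
  have hrange : Set.range φ = Set.range θ := by
    ext w
    constructor
    · rintro ⟨y, rfl⟩
      obtain ⟨h, rfl⟩ := hπs y
      exact ⟨h, hθφ' h⟩
    · rintro ⟨h, rfl⟩
      exact ⟨π h, (hθφ' h).symm⟩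
  have hfld : Fld φ = Fld θ := by
    unfold Fld
    rw [hrange]
  have hcardX : Nat.card (P ⧸ K) = p ^ x := hx
  letI instX : Fintype (P ⧸ K) := Fintype.ofFinite _
  have hXp : IsPGroup p (P ⧸ K) := IsPGroup.of_card hcardX
  have hφf : ∀ y, φ y = φ 1 → y = 1 := by
    intro y hy
    obtain ⟨h, rfl⟩ := hπs y
    rw [← hθφ', hφ1] at hy
    have h2 : h ∈ K := hy
    have h3 : π h = 1 := by
      rw [← QuotientGroup.ker_mk' K] at h2
      exact h2
    exact h3
  have hne : (⊤ : Subgroup (P ⧸ K)) ≠ ⊥ := by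
    intro h
    have h1 : Nat.card (P ⧸ K) = 1 := by
      rw [← Subgroup.card_top, h, Subgroup.card_bot]
    rw [hcardX] at h1
    have := Nat.one_lt_pow hxpos.ne' hpp.one_lt
    omega
  obtain ⟨z, -, hzc, hzo⟩ := Cfsg.Agent.Lib.PGroups.Basic.exists_central_orderOf_eq hXp ⊤ hne
  obtain ⟨ω, hωF, hωp⟩ := exists_primitive_mem_fld hφ hφf hzc hzo
  have hφc := isCharacter_of_isIrrCharacter hφ
  haveI hfd := finiteDimensional_fld hφc
  -- the degree of the field of values
  have hdvd1 : p - 1 ∣ Module.finrank ℚ (Fld φ) := by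
    have h1 : IntermediateField.adjoin ℚ {ω} ≤ Fld φ :=
      IntermediateField.adjoin_simple_le_iff.mpr hωF
    have h2 := IntermediateField.finrank_dvd_of_le_right h1
    have hint : IsIntegral ℚ ω := (hωp.isIntegral hpp.pos).tower_top
    rw [IntermediateField.adjoin.finrank hint, ← Polynomial.cyclotomic_eq_minpoly_rat hωp hpp.pos,
      Polynomial.natDegree_cyclotomic, Nat.totient_prime hpp] at h2
    exact h2
  have hdvd2 : Module.finrank ℚ (Fld φ) ∣ (p - 1) * p ^ (x - 1) := by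
    have h1 := IntermediateField.finrank_dvd_of_le_right (fld_le_Kn hφc)
    haveI := isCyclotomicExtension_Kn (Nat.card (P ⧸ K))
    have h2 : Module.finrank ℚ (Kn (Nat.card (P ⧸ K))) = (Nat.card (P ⧸ K)).totient :=
      IsCyclotomicExtension.finrank (n := Nat.card (P ⧸ K)) (K := ℚ) _
        (Polynomial.cyclotomic.irreducible_rat Nat.card_pos)
    rw [h2, hcardX] at h1
    obtain ⟨y, rfl⟩ : ∃ y, x = y + 1 := ⟨x - 1, by omega⟩
    rw [Nat.totient_prime_pow_succ hpp, mul_comm] at h1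
    simpa using h1
  obtain ⟨d, hd⟩ := hdvd1
  have hppos : 0 < p - 1 := Nat.sub_pos_of_lt hpp.one_lt
  have hd2 : d ∣ p ^ (x - 1) := by
    rw [hd] at hdvd2
    exact (Nat.mul_dvd_mul_iff_left hppos).mp hdvd2
  obtain ⟨t, -, ht⟩ := (Nat.dvd_prime_pow hpp).mp hd2
  have hdeg : charDegree φ = charDegree θ := by
    unfold charDegree
    rw [hφ1]
  have hfdvd : charDegree θ ∣ p ^ x := by
    rw [← hdeg, ← hcardX]
    exact charDegree_dvd_card hφ
  obtain ⟨u, -, hu⟩ := (Nat.dvd_prime_pow hpp).mp hfdvd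
  have hφdeg : φ 1 = charDegree θ := by
    rw [← hdeg, charDegree_natCast hφc]
  have hfin : Module.finrank ℚ (Fld φ) = (p - 1) * p ^ t := by rw [hd, ht]
  have hmain := main_bound p x (P ⧸ K) φ (charDegree θ) t hcardX hφ hφf hφdeg hfin
  rw [hu] at hmain
  rw [← hfld, hfin, hu] at hN ⊢
  exact numeric hpp hmain hN

variable [Fintype (IrrCharacter P)]

/-- The common kernel of a set of irreducible characters. -/
def kerT (T : Finset (IrrCharacter P)) : Subgroup P :=
  ⨅ φ ∈ T, charKer (isCharacter_of_isIrrCharacter φ.2)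

theorem mem_kerT (T : Finset (IrrCharacter P)) (g : P) :
    g ∈ kerT T ↔ ∀ φ ∈ T, φ.1 g = φ.1 1 := by
  simp [kerT, Subgroup.mem_iInf]

/-- Inverse exponents modulo the group order. -/
theorem exists_inv_exp {k : ℕ} (hk : k.Coprime (Nat.card P)) :
    ∃ k' : ℕ, k'.Coprime (Nat.card P) ∧ ∀ g : P, (g ^ k') ^ k = g := by
  refine ⟨k ^ ((Nat.card P).totient - 1), Nat.Coprime.pow_left _ hk, fun g => ?_⟩
  have hpos : 0 < (Nat.card P).totient := Nat.totient_pos.mpr Nat.card_pos
  have h1 : k ^ ((Nat.card P).totient - 1) * k = k ^ (Nat.card P).totient := by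
    rw [← pow_succ]
    congr 1
    omega
  rw [← pow_mul, h1]
  have h2 := Nat.ModEq.pow_totient hk
  have h3 : k ^ (Nat.card P).totient ≡ 1 [MOD orderOf g] :=
    h2.of_dvd (orderOf_dvd_natCard g)
  have h4 := (pow_eq_pow_iff_modEq (x := g)).mpr h3
  rwa [pow_one] at h4

/-- Closure under power maps. -/
def Closed (T : Finset (IrrCharacter P)) : Prop :=
  ∀ θ ∈ T, ∀ φ : IrrCharacter P, (∃ k : ℕ, k.Coprime (Nat.card P) ∧ ∀ g, φ.1 g = θ.1 (g ^ k)) →
    φ ∈ T

theorem T_bound {p : ℕ} [hp : Fact p.Prime] (hP : IsPGroup p P) (N : ℕ)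
    (T : Finset (IrrCharacter P)) (hT : Closed T) (hN : ∑ φ ∈ T, charDegree φ.1 < N) :
    ∃ v, (kerT T).index = p ^ v ∧ v ≤ A p N (∑ φ ∈ T, charDegree φ.1) := by
  classical
  have hpp : p.Prime := hp.out
  induction T using Finset.strongInduction with
  | H T ih =>
    rcases T.eq_empty_or_nonempty with rfl | ⟨θ, hθ⟩
    · refine ⟨0, ?_, Nat.zero_le _⟩
      have h1 : kerT (∅ : Finset (IrrCharacter P)) = ⊤ := by
        simp [kerT]
      rw [h1, Subgroup.index_top, pow_zero]
    have hOT : orbit θ ⊆ T := by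
      intro φ hφ
      exact hT θ hθ φ ((mem_orbit θ φ).mp hφ)
    have hself : θ ∈ orbit θ := (mem_orbit θ θ).mpr
      ⟨1, Nat.coprime_one_left _, fun g => by rw [pow_one]⟩
    have hss : T \ orbit θ ⊂ T := by
      refine Finset.ssubset_iff_subset_ne.mpr ⟨Finset.sdiff_subset, fun h => ?_⟩
      have h1 : θ ∈ T \ orbit θ := by
        rw [h]
        exact hθ
      exact (Finset.mem_sdiff.mp h1).2 hself
    have hclosed : Closed (T \ orbit θ) := by
      intro ψ hψ φ hφ
      obtain ⟨hψT, hψO⟩ := Finset.mem_sdiff.mp hψ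
      refine Finset.mem_sdiff.mpr ⟨hT ψ hψT φ hφ, fun hφO => hψO ?_⟩
      obtain ⟨k, hk, hkφ⟩ := hφ
      obtain ⟨j, hj, hjφ⟩ := (mem_orbit θ φ).mp hφO
      obtain ⟨k', hk', hinv⟩ := exists_inv_exp hk
      refine (mem_orbit θ ψ).mpr ⟨k' * j, Nat.Coprime.mul_left hk' hj, fun g => ?_⟩
      have h1 := hkφ (g ^ k')
      rw [hinv, hjφ, ← pow_mul] at h1
      exact h1.symm
    have hsum : ∑ φ ∈ T, charDegree φ.1 =
        ∑ φ ∈ T \ orbit θ, charDegree φ.1 + ∑ φ ∈ orbit θ, charDegree φ.1 :=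
      (Finset.sum_sdiff hOT).symm
    have hdegO : ∑ φ ∈ orbit θ, charDegree φ.1 = (orbit θ).card * charDegree θ.1 := by
      rw [Finset.sum_congr rfl (g := fun _ => charDegree θ.1), Finset.sum_const, smul_eq_mul]
      intro φ hφ
      obtain ⟨k, -, hk⟩ := (mem_orbit θ φ).mp hφ
      unfold charDegree
      rw [hk 1, one_pow]
    have hle1 : Module.finrank ℚ (Fld θ.1) * charDegree θ.1 ≤ ∑ φ ∈ orbit θ, charDegree φ.1 := by
      rw [hdegO]
      exact Nat.mul_le_mul_right _ (finrank_le_card_orbit θ)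
    obtain ⟨v', hv', hv'le⟩ := ih _ hss hclosed (by omega)
    obtain ⟨v'', hv'', hv''le⟩ := single_bound hP θ.2 N (by omega)
    obtain ⟨e, he⟩ := IsPGroup.iff_card.mp hP
    have hdvd : (kerT T).index ∣ p ^ e := by
      rw [← he]
      exact (kerT T).index_dvd_card
    obtain ⟨w, -, hw⟩ := (Nat.dvd_prime_pow hpp).mp hdvd
    refine ⟨w, hw, ?_⟩
    have hleK : kerT (T \ orbit θ) ⊓ charKer (isCharacter_of_isIrrCharacter θ.2) ≤ kerT T := by
      intro g hg
      have hg1 := (Subgroup.mem_inf.mp hg).1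
      have hg2 := (Subgroup.mem_inf.mp hg).2
      rw [mem_kerT] at hg1 ⊢
      intro φ hφ
      by_cases hφO : φ ∈ orbit θ
      · obtain ⟨k, -, hk⟩ := (mem_orbit θ φ).mp hφO
        have hg3 : g ^ k ∈ charKer (isCharacter_of_isIrrCharacter θ.2) :=
          Subgroup.pow_mem _ hg2 k
        rw [hk g, hk 1, one_pow]
        exact hg3
      · exact hg1 φ (Finset.mem_sdiff.mpr ⟨hφ, hφO⟩)
    have hidx : (kerT T).index ≤ p ^ v' * p ^ v'' := by
      have h1 : (kerT T).index ∣ (kerT (T \ orbit θ) ⊓ charKer (isCharacter_of_isIrrCharacter θ.2)).index :=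
        Subgroup.index_dvd_of_le hleK
      have h2 := Nat.le_of_dvd (Nat.pos_of_ne_zero Subgroup.FiniteIndex.index_ne_zero) h1
      refine h2.trans ?_
      have h3 := Subgroup.index_inf_le (H := kerT (T \ orbit θ))
        (K := charKer (isCharacter_of_isIrrCharacter θ.2))
      rwa [hv', hv''] at h3
    rw [hw, ← pow_add] at hidx
    have hwle : w ≤ v' + v'' := (Nat.pow_le_pow_iff_right hpp.one_lt).mp hidx
    calc w ≤ v' + v'' := hwle
      _ ≤ A p N (∑ φ ∈ T \ orbit θ, charDegree φ.1) + A p N (∑ φ ∈ orbit θ, charDegree φ.1) :=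
          add_le_add hv'le (hv''le.trans (A_mono p N hle1))
      _ ≤ A p N (∑ φ ∈ T, charDegree φ.1) := by
          rw [hsum]
          exact A_add _ _ _ _

/-- Schur's bound for `p`-groups. -/
theorem pgroup_bound {p : ℕ} [hp : Fact p.Prime] (hP : IsPGroup p P) {ψ : P → ℂ}
    (hψ : IsCharacter P ψ) (hfaith : ∀ g, ψ g = ψ 1 → g = 1)
    (hinv : ∀ k : ℕ, k.Coprime (Nat.card P) → ∀ g, ψ (g ^ k) = ψ g) (n : ℕ) (hn : ψ 1 = n) :
    ∃ v, Nat.card P = p ^ v ∧ v ≤ A p (n + 1) n := by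
  classical
  obtain ⟨m, hm⟩ := exists_nat_combination hψ
  let T : Finset (IrrCharacter P) := Finset.univ.filter (fun i => m i ≠ 0)
  have hval : ∀ g, ψ g = ∑ i, (m i : ℂ) * i.1 g := by
    intro g
    rw [hm]
    simp [Finset.sum_apply]
  have hclosed : Closed T := by
    intro θ hθ φ ⟨k, hk, hkφ⟩
    refine Finset.mem_filter.mpr ⟨Finset.mem_univ _, ?_⟩
    have h1 : m θ ≠ 0 := (Finset.mem_filter.mp hθ).2
    have h2 : classInner ψ φ.1 = classInner ψ θ.1 := by
      simp only [classInner_def]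
      congr 1
      have h3 : ∀ g, ψ g * conj (φ.1 g) = ψ (g ^ k) * conj (θ.1 (g ^ k)) := by
        intro g
        rw [hinv k hk, hkφ]
      simp only [h3]
      exact Function.Bijective.sum_comp (pow_bijective_of_coprime hk)
        (fun g => ψ g * conj (θ.1 g))
    rw [hm, classInner_of_nat_combination, classInner_of_nat_combination] at h2
    have h4 : m φ = m θ := by exact_mod_cast h2
    rw [h4]
    exact h1
  have hdegs : ∀ i : IrrCharacter P, (charDegree i.1 : ℂ) = i.1 1 := fun i =>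
    charDegree_natCast (isCharacter_of_isIrrCharacter i.2)
  have hnsum : n = ∑ i, m i * charDegree i.1 := by
    have h1 := hval 1
    rw [hn] at h1
    have h2 : (n : ℂ) = ((∑ i, m i * charDegree i.1 : ℕ) : ℂ) := by
      rw [h1]
      push_cast
      exact Finset.sum_congr rfl fun i _ => by rw [hdegs]
    exact_mod_cast h2
  have hTle : ∑ φ ∈ T, charDegree φ.1 ≤ n := by
    rw [hnsum]
    calc ∑ φ ∈ T, charDegree φ.1 ≤ ∑ φ ∈ T, m φ * charDegree φ.1 := by
          refine Finset.sum_le_sum fun i hi => ?_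
          have h1 : m i ≠ 0 := (Finset.mem_filter.mp hi).2
          exact Nat.le_mul_of_pos_left _ (Nat.pos_of_ne_zero h1)
      _ ≤ _ := Finset.sum_le_sum_of_subset (Finset.subset_univ _)
  obtain ⟨v, hv, hvle⟩ := T_bound hP (n + 1) T hclosed (by omega)
  have hbot : kerT T = ⊥ := by
    rw [eq_bot_iff]
    intro g hg
    rw [mem_kerT] at hg
    rw [Subgroup.mem_bot]
    apply hfaith
    rw [hval g, hval 1]
    refine Finset.sum_congr rfl fun i _ => ?_
    by_cases hi : m i = 0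
    · simp [hi]
    · rw [hg i (Finset.mem_filter.mpr ⟨Finset.mem_univ _, hi⟩)]
  rw [hbot, Subgroup.index_bot] at hv
  exact ⟨v, hv, hvle.trans (A_mono _ _ hTle)⟩

end Cfsg.Agent.Lib.CharDeep.Schur
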