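import Cfsg.Agent.Lib.CharDeep.Schur.Bound
import Cfsg.Agent.Lib.Glauberman.Canonical
import Cfsg.Agent.Lib.Char.CliffordCorr

/-!
# `p`-rational characters from canonical extensions

`H` is a normal `p'`-subgroup of `L` of `p`-power index.  Every conjugation invariant set of
irreducible characters of `H` gives a character of `L` restricting to the sum of the set, invariant
under the power maps with exponent congruent to `1` modulo `|H|`.
-/

set_option autoImplicit false
set_option linter.unusedSectionVars false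

namespace Cfsg.Agent.Lib.CharDeep.Schur

open Subgroup Cfsg Cfsg.Agent.Lib.Char.Basic Cfsg.Agent.Lib.Char.Ortho Cfsg.Agent.Lib.Char.Complete
  Cfsg.Agent.Lib.Char.Linear Cfsg.Agent.Lib.Char.Degree Cfsg.Agent.Lib.Char.Conj
  Cfsg.Agent.Lib.Char.Induced Cfsg.Agent.Lib.Char.IndRep Cfsg.Agent.Lib.Char.Clifford
  Cfsg.Agent.Lib.Char.CliffordCorr Cfsg.Agent.Lib.OddChar.GaloisConj
  Cfsg.Agent.Lib.Glauberman.Canonical
open scoped ComplexConjugate

universe u

variable {L : Type u} [Group L] [Fintype L] {H : Subgroup L} (hN : H.Normal) [Fintype H]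
  {p : ℕ} [hp : Fact p.Prime]

/-- One orbit. -/
theorem exists_orbit_char [DecidableEq (H → ℂ)] (hcop : (Nat.card H).Coprime p)
    (hidx : ∃ r, H.index = p ^ r) {θ : H → ℂ} (hθ : IsIrrCharacter H θ) :
    ∃ Ψ : L → ℂ, IsCharacter L Ψ ∧ (∀ n : H, Ψ n = ∑ φ ∈ orbitFinset hN θ, φ n) ∧
      ∀ k : ℕ, k ≡ 1 [MOD Nat.card H] → k.Coprime (Nat.card L) → ∀ g, Ψ (g ^ k) = Ψ g := by
  classical
  have hpp : p.Prime := hp.out
  set T := inertia hN θ with hT
  have hθcl := isClassFunction_of_isCharacter (isCharacter_of_isIrrCharacter hθ)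
  have hHT : H ≤ T := le_inertia hN hθcl
  letI instT : Fintype T := Fintype.ofFinite T
  let N : Subgroup T := H.subgroupOf T
  haveI hNn : N.Normal := hN.subgroupOf T
  let e : N ≃* H := Subgroup.subgroupOfEquivOfLe hHT
  let ϑ : N → ℂ := θ ∘ e
  have hϑ : IsIrrCharacter N ϑ := isIrrCharacter_comp_mulEquiv e hθ
  have hϑv : ∀ n : N, ϑ n = θ ⟨((n : T) : L), n.2⟩ := fun n => rfl
  have hinv : ∀ (g : T) (n : N), ϑ ⟨g * n * g⁻¹, hNn.conj_mem n n.2 g⟩ = ϑ n := by
    intro g n
    have h1 : conjOn hN (g : L) θ = θ := g.2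
    exact congrFun h1 ⟨((n : T) : L), n.2⟩
  have hcardN : Nat.card N = Nat.card H := Nat.card_congr e.toEquiv
  have hcopN : (Nat.card N).Coprime p := by
    rw [hcardN]
    exact hcop
  have hNidx : ∃ s, N.index = p ^ s := by
    obtain ⟨r, hr⟩ := hidx
    have h1 : H.relIndex T ∣ H.index := Subgroup.relIndex_dvd_index_of_normal H T
    rw [hr] at h1
    obtain ⟨s, -, hs⟩ := (Nat.dvd_prime_pow hpp).mp h1
    exact ⟨s, hs⟩
  obtain ⟨s, hs⟩ := hNidx
  obtain ⟨d, hd⟩ := exists_deg_of_isCharacter (isCharacter_of_isIrrCharacter hϑ)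
  have hddvd : d ∣ Nat.card N := by
    have h1 := charDegree_dvd_card hϑ
    rwa [charDegree_eq_of_eq_natCast hd] at h1
  have hcopidx : Nat.Coprime N.index (detOrder ϑ * d) := by
    rw [hs]
    apply Nat.Coprime.pow_left
    apply Nat.Coprime.mul_right
    · exact (Nat.Coprime.coprime_dvd_left
        (detOrder_dvd_card (isCharacter_of_isIrrCharacter hϑ)) hcopN).symm
    · exact (Nat.Coprime.coprime_dvd_left hddvd hcopN).symm
  obtain ⟨θh, ⟨hθh, hext, hdetθ⟩, huniq⟩ := Cfsg.Agent.S0867.result N ϑ hϑ hinv d hd hcopidx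
  have hθhc := isCharacter_of_isIrrCharacter hθh
  have hpow : ∀ k : ℕ, k ≡ 1 [MOD Nat.card H] → k.Coprime (Nat.card L) → ∀ t : T,
      θh (t ^ k) = θh t := by
    intro k hk1 hk2 t
    have hkT : k.Coprime (Nat.card T) :=
      Nat.Coprime.coprime_dvd_right (Subgroup.card_subgroup_dvd_card T) hk2
    obtain ⟨f, hf⟩ := exists_ringEquiv_pow (Nat.card T) k Nat.card_pos.ne' hkT
    have hψeq : (fun g => θh (g ^ k)) = (f : ℂ →+* ℂ) ∘ θh := by
      funext g
      exact (comp_character_eq (f := (f : ℂ →+* ℂ)) hf dvd_rfl hθhc g).symm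
    have hψirr : IsIrrCharacter T (fun g => θh (g ^ k)) := isIrrCharacter_pow hkT hθh
    have hψdet : detOrder (fun g => θh (g ^ k)) = detOrder θh := by
      rw [hψeq]
      exact detOrder_comp_ringHom f hθhc
    have hpowN : ∀ n : N, ((n : T)) ^ k = n := by
      intro n
      have h1 : (n : N) ^ k = n := by
        have h2 : (n : N) ^ k = n ^ 1 := (pow_eq_pow_iff_modEq).mpr
          (Nat.ModEq.of_dvd (by rw [← hcardN]; exact orderOf_dvd_natCard n) hk1)
        rwa [pow_one] at h2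
      exact congrArg Subtype.val h1
    have hcopdet : ∀ χ' : T → ℂ, detOrder χ' = detOrder ϑ → Nat.Coprime N.index (detOrder χ') := by
      intro χ' h
      rw [h]
      exact Nat.Coprime.coprime_dvd_right (Dvd.intro _ rfl) hcopidx
    have h1 := huniq (fun g => θh (g ^ k)) hψirr
      (fun n => by
        show θh ((n : T) ^ k) = _
        rw [hpowN, hext]) (hcopdet _ (by rw [hψdet, hdetθ]))
    exact congrFun h1 t
  have hres : res hHT θh = θ := funext fun n => hext ⟨⟨n, hHT n.2⟩, n.2⟩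
  have hone : classInner θ θ = 1 := classInner_self_of_isIrr hθ
  have hirr := isIrrCharacter_indFun_of_lies_over hN hHT hθ rfl hθh
    (by rw [hres, hone]; exact one_ne_zero)
  have hcl := clifford_restrict hN hirr.1 hθ (by rw [hirr.2, hres, hone]; exact one_ne_zero)
  rw [hirr.2, hres, hone, one_smul] at hcl
  refine ⟨indFun T θh, isCharacter_of_isIrrCharacter hirr.1, ?_, ?_⟩
  · intro n
    have := congrFun hcl n
    simpa [Finset.sum_apply] using this
  · intro k hk1 hk2 g
    rw [indFun_apply, indFun_apply]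
    congr 1
    refine Finset.sum_congr rfl fun x _ => ?_
    have h1 : x⁻¹ * g ^ k * x = (x⁻¹ * g * x) ^ k := by
      have := conj_pow (a := x⁻¹) (b := g) (i := k)
      simpa using this.symm
    rw [h1]
    set y := x⁻¹ * g * x with hy
    by_cases hyT : y ∈ T
    · have hykT : y ^ k ∈ T := T.pow_mem hyT k
      rw [extendByZero_of_mem T θh hyT, extendByZero_of_mem T θh hykT]
      exact hpow k hk1 hk2 ⟨y, hyT⟩
    · have hykT : y ^ k ∉ T := by
        intro h
        apply hyT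
        haveI := finite_irrCharacter (G := L)
        letI : Fintype (IrrCharacter L) := Fintype.ofFinite _
        obtain ⟨k', -, hk'⟩ := exists_inv_exp hk2
        have h2 := hk' y
        rw [pow_right_comm] at h2
        rw [← h2]
        exact T.pow_mem h k'
      rw [extendByZero_of_not_mem T θh hyT, extendByZero_of_not_mem T θh hykT]

/-- Conjugation invariant sets. -/
theorem exists_set_char [DecidableEq (H → ℂ)] (hcop : (Nat.card H).Coprime p)
    (hidx : ∃ r, H.index = p ^ r) (S : Finset (H → ℂ)) (hirr : ∀ θ ∈ S, IsIrrCharacter H θ)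
    (hcl : ∀ θ ∈ S, ∀ g : L, conjOn hN g θ ∈ S) :
    ∃ Ψ : L → ℂ, IsCharacter L Ψ ∧ (∀ n : H, Ψ n = ∑ φ ∈ S, φ n) ∧
      ∀ k : ℕ, k ≡ 1 [MOD Nat.card H] → k.Coprime (Nat.card L) → ∀ g, Ψ (g ^ k) = Ψ g := by
  classical
  induction S using Finset.strongInduction with
  | H S ih =>
    rcases S.eq_empty_or_nonempty with rfl | ⟨θ, hθ⟩
    · refine ⟨fun _ => 0, isCharacter_zero, fun n => by simp, fun k _ _ g => rfl⟩
    have hOS : orbitFinset hN θ ⊆ S := by
      intro φ hφ
      obtain ⟨g, rfl⟩ := (mem_orbitFinset hN θ φ).mp hφ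
      exact hcl θ hθ g
    have hself : θ ∈ orbitFinset hN θ := (mem_orbitFinset hN θ θ).mpr ⟨1, conjOn_one hN θ⟩
    have hss : S \ orbitFinset hN θ ⊂ S := by
      refine Finset.ssubset_iff_subset_ne.mpr ⟨Finset.sdiff_subset, fun h => ?_⟩
      have h1 : θ ∈ S \ orbitFinset hN θ := by
        rw [h]
        exact hθ
      exact (Finset.mem_sdiff.mp h1).2 hself
    obtain ⟨Ψ', hΨ'c, hΨ'v, hΨ'k⟩ := ih _ hss
      (fun φ hφ => hirr φ (Finset.mem_sdiff.mp hφ).1)
      (fun φ hφ g => by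
        obtain ⟨hφS, hφO⟩ := Finset.mem_sdiff.mp hφ
        refine Finset.mem_sdiff.mpr ⟨hcl φ hφS g, fun h => hφO ?_⟩
        obtain ⟨c, hc⟩ := (mem_orbitFinset hN θ _).mp h
        refine (mem_orbitFinset hN θ φ).mpr ⟨c * g⁻¹, ?_⟩
        rw [conjOn_mul, hc, ← conjOn_mul, mul_inv_cancel, conjOn_one])
    obtain ⟨Ψ₁, hΨ₁c, hΨ₁v, hΨ₁k⟩ := exists_orbit_char hN hcop hidx (hirr θ hθ)
    refine ⟨Ψ' + Ψ₁, isCharacter_add hΨ'c hΨ₁c, fun n => ?_, fun k hk1 hk2 g => ?_⟩
    · rw [Pi.add_apply, hΨ'v, hΨ₁v, Finset.sum_sdiff hOS]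
    · rw [Pi.add_apply, Pi.add_apply, hΨ'k k hk1 hk2, hΨ₁k k hk1 hk2]

/-- Schur's bound for a not necessarily faithful character. -/
theorem pgroup_bound' {P : Type u} [Group P] [Fintype P] (hP : IsPGroup p P) {ψ : P → ℂ}
    (hψ : IsCharacter P ψ)
    (hinv : ∀ k : ℕ, k.Coprime (Nat.card P) → ∀ g, ψ (g ^ k) = ψ g) (n : ℕ) (hn : ψ 1 = n) :
    ∃ v, (charKer hψ).index = p ^ v ∧ v ≤ A p (n + 1) n := by
  classical
  have hpp : p.Prime := hp.out
  haveI := finite_irrCharacter (G := P)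
  letI : Fintype (IrrCharacter P) := Fintype.ofFinite _
  obtain ⟨m, hm⟩ := exists_nat_combination hψ
  let T : Finset (IrrCharacter P) := Finset.univ.filter (fun i => m i ≠ 0)
  have hval : ∀ g, ψ g = ∑ i, (m i : ℂ) * i.1 g := by
    intro g
    rw [hm]
    simp [Finset.sum_apply]
  have hclosed : Closed T := by
    intro θ hθ φ ⟨k, hk, hkφ⟩
    refine Finset.mem_filter.mpr ⟨Finset.mem_univ _, ?_⟩
    have h1 : m θ ≠ 0 := (Finset.mem_filter.mp hθ).2
    have h2 : classInner ψ φ.1 = classInner ψ θ.1 := by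
      simp only [Cfsg.Agent.Lib.Char.Ortho.classInner_def]
      congr 1
      have h3 : ∀ g, ψ g * conj (φ.1 g) = ψ (g ^ k) * conj (θ.1 (g ^ k)) := by
        intro g
        rw [hinv k hk, hkφ]
      simp only [h3]
      exact Function.Bijective.sum_comp (pow_bijective_of_coprime hk)
        (fun g => ψ g * conj (θ.1 g))
    rw [hm, classInner_of_nat_combination, classInner_of_nat_combination] at h2
    have h4 : m φ = m θ := by exact_mod_cast h2
    rw [h4]
    exact h1
  have hdegs : ∀ i : IrrCharacter P, (charDegree i.1 : ℂ) = i.1 1 := fun i =>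
    charDegree_natCast (isCharacter_of_isIrrCharacter i.2)
  have hnsum : n = ∑ i, m i * charDegree i.1 := by
    have h1 := hval 1
    rw [hn] at h1
    have h2 : (n : ℂ) = ((∑ i, m i * charDegree i.1 : ℕ) : ℂ) := by
      rw [h1]
      push_cast
      exact Finset.sum_congr rfl fun i _ => by rw [hdegs]
    exact_mod_cast h2
  have hTle : ∑ φ ∈ T, charDegree φ.1 ≤ n := by
    rw [hnsum]
    calc ∑ φ ∈ T, charDegree φ.1 ≤ ∑ φ ∈ T, m φ * charDegree φ.1 := by
          refine Finset.sum_le_sum fun i hi => ?_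
          have h1 : m i ≠ 0 := (Finset.mem_filter.mp hi).2
          exact Nat.le_mul_of_pos_left _ (Nat.pos_of_ne_zero h1)
      _ ≤ _ := Finset.sum_le_sum_of_subset (Finset.subset_univ _)
  obtain ⟨v, hv, hvle⟩ := T_bound hP (n + 1) T hclosed (by omega)
  have hle : kerT T ≤ charKer hψ := by
    intro g hg
    rw [mem_kerT] at hg
    rw [mem_charKer, hval g, hval 1]
    refine Finset.sum_congr rfl fun i _ => ?_
    by_cases hi : m i = 0
    · simp [hi]
    · rw [hg i (Finset.mem_filter.mpr ⟨Finset.mem_univ _, hi⟩)]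
  have hdvd : (charKer hψ).index ∣ p ^ v := by
    rw [← hv]
    exact Subgroup.index_dvd_of_le hle
  obtain ⟨w, hwv, hw⟩ := (Nat.dvd_prime_pow hpp).mp hdvd
  exact ⟨w, hw, hwv.trans (hvle.trans (A_mono _ _ hTle))⟩

/-- Norm bound for characters. -/
theorem norm_le_re_one {X : Type u} [Group X] [Finite X] {χ : X → ℂ} (hχ : IsCharacter X χ) (y : X) :
    ‖χ y‖ ≤ (χ 1).re := by
  obtain ⟨n, ρ, rfl⟩ := hχ
  have h1 := Cfsg.Agent.Lib.Char.Ortho.norm_character_le ρ y
  rw [Representation.char_one]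
  simpa using h1

/-- The kernel of a sum of characters lies in the kernels of the summands. -/
theorem eq_of_sum_eq_sum {X : Type u} [Group X] [Finite X] {ι : Type*} (s : Finset ι)
    (θ : ι → X → ℂ) (hc : ∀ i ∈ s, IsCharacter X (θ i)) (y : X)
    (h : ∑ i ∈ s, θ i y = ∑ i ∈ s, θ i 1) : ∀ i ∈ s, θ i y = θ i 1 := by
  have h1 := congrArg Complex.re h
  simp only [Complex.re_sum] at h1
  have h2 : ∑ i ∈ s, ((θ i 1).re - (θ i y).re) = 0 := by
    rw [Finset.sum_sub_distrib, h1, sub_self]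
  have hnn : ∀ i ∈ s, 0 ≤ (θ i 1).re - (θ i y).re := by
    intro i hi
    have h3 := norm_le_re_one (hc i hi) y
    have h4 := Complex.re_le_norm (θ i y)
    linarith
  have h3 := (Finset.sum_eq_zero_iff_of_nonneg hnn).mp h2
  intro i hi
  have h4 := h3 i hi
  have h5 := norm_le_re_one (hc i hi) y
  have h6 : (θ i y).re = (θ i 1).re := by linarith
  have h7 : (θ i y).im = 0 := by
    have h8 : ‖θ i y‖ ^ 2 = (θ i y).re ^ 2 + (θ i y).im ^ 2 := by
      rw [← Complex.normSq_eq_norm_sq, Complex.normSq_apply]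
      ring
    have h9 : ‖θ i y‖ ≤ (θ i y).re := h6 ▸ h5
    have h10 : ‖θ i y‖ ^ 2 ≤ (θ i y).re ^ 2 := by
      apply pow_le_pow_left₀ (norm_nonneg _) h9
    nlinarith [sq_nonneg (θ i y).im]
  obtain ⟨n, ρ, hρ⟩ := hc i hi
  have h8 : (θ i 1).im = 0 := by
    rw [← hρ, Representation.char_one]
    simp
  apply Complex.ext
  · exact h6
  · rw [h7, h8]

include hN in
/-- The core of the argument. -/
theorem core_bound [DecidableEq (H → ℂ)] {Q : Type u} [Group Q] [Fintype Q] (j : Q →* L)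
    (hcop : (Nat.card H).Coprime p) (hQ : IsPGroup p Q) (htop : H ⊔ j.range = ⊤) {χ : L → ℂ}
    (hχ : IsCharacter L χ) (hfaith : ∀ g, χ g = χ 1 → g = 1) (n : ℕ) (hn : χ 1 = n) :
    ∃ (D : Subgroup Q) (v : ℕ), (∀ x ∈ D, ∀ h ∈ H, j x * h = h * j x) ∧ D.index = p ^ v ∧
      v ≤ A p (n + 1) n := by
  classical
  have hpp : p.Prime := hp.out
  haveI := finite_irrCharacter (G := H)
  letI instIrr : Fintype (IrrCharacter H) := Fintype.ofFinite _
  -- orders
  have hRp : IsPGroup p j.range := by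
    have h1 : IsPGroup p (⊤ : Subgroup Q) := hQ.to_subgroup _
    have h2 := h1.map j
    rwa [← MonoidHom.range_eq_map] at h2
  have hRdvd : Nat.card j.range ∣ Nat.card Q := by
    have h1 := Subgroup.card_dvd_of_surjective j.rangeRestrict j.rangeRestrict_surjective
    exact h1
  have hcopQ : (Nat.card Q).Coprime (Nat.card H) := by
    obtain ⟨e, he⟩ := IsPGroup.iff_card.mp hQ
    rw [he]
    exact Nat.Coprime.pow_left _ hcop.symm
  have hcopR : (Nat.card j.range).Coprime (Nat.card H) :=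
    Nat.Coprime.coprime_dvd_left hRdvd hcopQ
  have hdisj : j.range ⊓ H = ⊥ :=
    Cfsg.Agent.Lib.Coprime.SchurZassenhaus.disjoint_of_coprime_card hcopR
  have hcardL : Nat.card L = Nat.card H * Nat.card j.range := by
    haveI := hN
    have h1 := Cfsg.Agent.Lib.Coprime.SchurZassenhaus.card_sup_of_disjoint H j.range hdisj
    rw [sup_comm, htop, Subgroup.card_top] at h1
    exact h1
  have hidx : ∃ r, H.index = p ^ r := by
    have h1 := H.card_mul_index
    rw [hcardL] at h1
    have h2 : H.index = Nat.card j.range := Nat.eq_of_mul_eq_mul_left Nat.card_pos h1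
    obtain ⟨e, he⟩ := IsPGroup.iff_card.mp hRp
    exact ⟨e, h2.trans he⟩
  -- the constituents of the restriction
  have hres : IsCharacter H (fun h : H => χ h) := isCharacter_restrict H hχ
  obtain ⟨m, hm⟩ := exists_nat_combination hres
  let S₀ : Finset (IrrCharacter H) := Finset.univ.filter (fun i => m i ≠ 0)
  let S : Finset (H → ℂ) := S₀.image (fun i => i.1)
  have hinj : Set.InjOn (fun i : IrrCharacter H => i.1) (S₀ : Set (IrrCharacter H)) :=
    fun _ _ _ _ h => Subtype.ext h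
  have hmcl : ∀ i : IrrCharacter H, classInner (fun h : H => χ h) i.1 = m i := by
    intro i
    rw [hm, classInner_of_nat_combination]
  have hirr : ∀ θ ∈ S, IsIrrCharacter H θ := by
    intro θ hθ
    obtain ⟨i, -, rfl⟩ := Finset.mem_image.mp hθ
    exact i.2
  have hχcl := isClassFunction_of_isCharacter hχ
  have hcl : ∀ θ ∈ S, ∀ g : L, conjOn hN g θ ∈ S := by
    intro θ hθ g
    obtain ⟨i, hi, rfl⟩ := Finset.mem_image.mp hθ
    have hi' : m i ≠ 0 := (Finset.mem_filter.mp hi).2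
    let i' : IrrCharacter H := ⟨conjOn hN g i.1, isIrrCharacter_conjOn hN g i.2⟩
    refine Finset.mem_image.mpr ⟨i', Finset.mem_filter.mpr ⟨Finset.mem_univ _, ?_⟩, rfl⟩
    have h1 := classInner_restrict_conjOn hN hχcl g i.1
    have h2 := hmcl i'
    have h3 := hmcl i
    have h4 : (m i' : ℂ) = m i := by
      rw [← h2, ← h3]
      exact h1
    have h5 : m i' = m i := by exact_mod_cast h4
    rw [h5]
    exact hi'
  obtain ⟨Ψ, hΨc, hΨv, hΨk⟩ := exists_set_char hN hcop hidx S hirr hcl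
  have hsumS : ∀ y : H, Ψ y = ∑ i ∈ S₀, i.1 y := by
    intro y
    rw [hΨv, Finset.sum_image hinj]
  have hval : ∀ y : H, χ y = ∑ i, (m i : ℂ) * i.1 y := by
    intro y
    have := congrFun hm y
    rw [this]
    simp [Finset.sum_apply]
  have hdegs : ∀ i : IrrCharacter H, (charDegree i.1 : ℂ) = i.1 1 := fun i =>
    charDegree_natCast (isCharacter_of_isIrrCharacter i.2)
  -- the degree
  have hnsum : n = ∑ i, m i * charDegree i.1 := by
    have h1 := hval 1
    rw [Subgroup.coe_one, hn] at h1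
    have h2 : (n : ℂ) = ((∑ i, m i * charDegree i.1 : ℕ) : ℂ) := by
      rw [h1]
      push_cast
      exact Finset.sum_congr rfl fun i _ => by rw [hdegs]
    exact_mod_cast h2
  set d := ∑ i ∈ S₀, charDegree i.1 with hd
  have hdn : d ≤ n := by
    rw [hnsum, hd]
    calc ∑ φ ∈ S₀, charDegree φ.1 ≤ ∑ φ ∈ S₀, m φ * charDegree φ.1 := by
          refine Finset.sum_le_sum fun i hi => ?_
          have h1 : m i ≠ 0 := (Finset.mem_filter.mp hi).2
          exact Nat.le_mul_of_pos_left _ (Nat.pos_of_ne_zero h1)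
      _ ≤ _ := Finset.sum_le_sum_of_subset (Finset.subset_univ _)
  have hΨ1 : Ψ 1 = d := by
    have h1 := hsumS 1
    rw [Subgroup.coe_one] at h1
    rw [h1, hd]
    push_cast
    exact Finset.sum_congr rfl fun i _ => (hdegs i).symm
  -- the kernel
  have hker : ∀ y : H, Ψ y = Ψ 1 → y = 1 := by
    intro y hy
    have h1 : ∑ i ∈ S₀, i.1 y = ∑ i ∈ S₀, i.1 1 := by
      rw [← hsumS y, hy, ← Subgroup.coe_one, hsumS 1]
    have h2 := eq_of_sum_eq_sum S₀ (fun i : IrrCharacter H => i.1)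
      (fun i _ => isCharacter_of_isIrrCharacter i.2) y h1
    apply Subtype.ext
    apply hfaith
    rw [show (1 : L) = ((1 : H) : L) from rfl, hval y, hval 1]
    refine Finset.sum_congr rfl fun i _ => ?_
    by_cases hi : m i = 0
    · simp [hi]
    · rw [h2 i (Finset.mem_filter.mpr ⟨Finset.mem_univ _, hi⟩)]
  -- the character of `Q`
  let ψ : Q → ℂ := Ψ ∘ j
  have hψ : IsCharacter Q ψ := isCharacter_comp j hΨc
  have hinv : ∀ k : ℕ, k.Coprime (Nat.card Q) → ∀ g, ψ (g ^ k) = ψ g := by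
    intro k hk x
    obtain ⟨k', hk1, hk2⟩ := Nat.chineseRemainder hcopQ k 1
    have hk'Q : k'.Coprime (Nat.card Q) := by
      have := hk1.gcd_eq
      rw [Nat.Coprime, this]
      exact hk
    have hk'H : k'.Coprime (Nat.card H) := by
      have := hk2.gcd_eq
      rw [Nat.Coprime, this]
      exact Nat.gcd_one_left _
    have hk'L : k'.Coprime (Nat.card L) := by
      rw [hcardL]
      exact Nat.Coprime.mul_right hk'H (Nat.Coprime.coprime_dvd_right hRdvd hk'Q)
    have h1 : x ^ k = x ^ k' :=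
      (pow_eq_pow_iff_modEq (x := x)).mpr (hk1.of_dvd (orderOf_dvd_natCard x)).symm
    change Ψ (j (x ^ k)) = Ψ (j x)
    rw [h1, map_pow]
    exact hΨk k' hk2 hk'L (j x)
  have hψ1 : ψ 1 = d := by
    change Ψ (j 1) = d
    rw [map_one, hΨ1]
  obtain ⟨v, hv, hvle⟩ := pgroup_bound' hQ hψ hinv d hψ1
  refine ⟨charKer hψ, v, ?_, hv, hvle.trans ?_⟩
  · intro x hx h hh
    have hx1 : Ψ (j x) = Ψ 1 := by
      have h2 : ψ x = ψ 1 := hx
      change Ψ (j x) = Ψ (j 1) at h2
      rwa [map_one] at h2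
    have hxk : j x ∈ charKer hΨc := hx1
    have hc1 : j x * h * (j x)⁻¹ * h⁻¹ ∈ charKer hΨc := by
      have := (charKer_normal hΨc).conj_mem _ ((charKer hΨc).inv_mem hxk) h
      have h3 : j x * (h * (j x)⁻¹ * h⁻¹) ∈ charKer hΨc := (charKer hΨc).mul_mem hxk this
      simpa [mul_assoc] using h3
    have hc2 : j x * h * (j x)⁻¹ * h⁻¹ ∈ H := by
      have := hN.conj_mem _ hh (j x)
      exact H.mul_mem this (H.inv_mem hh)
    have h3 := hker ⟨_, hc2⟩ hc1
    have h4 : j x * h * (j x)⁻¹ * h⁻¹ = 1 := congrArg Subtype.val h3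
    have h5 : j x * h * (j x)⁻¹ = h := mul_inv_eq_one.mp h4
    calc j x * h = j x * h * (j x)⁻¹ * j x := by group
      _ = h * j x := by rw [h5]
  · calc A p (d + 1) d ≤ A p (n + 1) d := by
          unfold A
          exact Finset.sum_le_sum_of_subset (Finset.range_subset_range.mpr (by omega))
      _ ≤ A p (n + 1) n := A_mono _ _ hdn

end Cfsg.Agent.Lib.CharDeep.Schur
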