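import Cfsg.Agent.Lib.Core.PComplement
import Cfsg.Agent.Lib.HallHigman.Reduction

/-!
# A `p'`-subgroup `H` and a `p`-subgroup `Q` normalizing it with `Q / C_Q(H)` covering the Sylow
subgroups of `G / O_p(G)`
-/

set_option autoImplicit false

namespace Cfsg.Agent.Lib.CharDeep.Schur

open Subgroup Cfsg Cfsg.Agent.Lib.Core.Basic Cfsg.Agent.Lib.Core.PSolvable
  Cfsg.Agent.Lib.Core.PComplement

universe u

theorem exists_H_Q {G : Type u} [Group G] [Finite G] {p : ℕ} [hp : Fact p.Prime]
    (hG : IsPSolvable p G) :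
    ∃ H Q : Subgroup G, (Nat.card H).Coprime p ∧ IsPGroup p Q ∧ Q ≤ normalizer (H : Set G) ∧
      (∀ x ∈ Q, (∀ h ∈ H, x * h = h * x) → x ∈ pCore p G) ∧
      (pCore p G).relIndex Q = p ^ ((pCore p G).index.factorization p) := by
  classical
  have hpp : p.Prime := hp.out
  set O := pCore p G with hO
  haveI hOn : O.Normal := inferInstance
  let π : G →* G ⧸ O := QuotientGroup.mk' O
  have hπs : Function.Surjective π := QuotientGroup.mk'_surjective O
  have hOker : π.ker = O := QuotientGroup.ker_mk' O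
  have hcoreb : pCore p (G ⧸ O) = ⊥ := pCore_quotient_eq_bot
  have hsolvb : IsPSolvable p (G ⧸ O) := isPSolvable_of_surjective π hπs hG
  let Kb : Subgroup (G ⧸ O) := pPrimeCore p (G ⧸ O)
  have hcent : centralizer (Kb : Set (G ⧸ O)) ≤ Kb :=
    Cfsg.Agent.Lib.HallHigman.Reduction.centralizer_pPrimeCore_le_of_isPSolvable hsolvb hcoreb
  have hKbcop : (Nat.card Kb).Coprime p := pPrimeCore_coprime
  let K : Subgroup G := Kb.comap π
  have hOK : O ≤ K := by
    intro o ho
    have h1 : π o = 1 := by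
      rw [← MonoidHom.mem_ker, hOker]
      exact ho
    change π o ∈ Kb
    rw [h1]
    exact Kb.one_mem
  have hOp : IsPGroup p O := pCore_isPGroup
  obtain ⟨o, ho⟩ := IsPGroup.iff_card.mp hOp
  have hKsolv : IsPSolvable p K := isPSolvable_subgroup K hG
  let N₀ : Subgroup K := O.subgroupOf K
  haveI hN₀n : N₀.Normal := hOn.subgroupOf K
  have hN₀card : Nat.card N₀ = p ^ o := by
    rw [← ho]
    exact Nat.card_congr (Subgroup.subgroupOfEquivOfLe hOK).toEquiv
  have hKmap : K.map π = Kb := Subgroup.map_comap_eq_self_of_surjective hπs Kb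
  have hN₀idx : N₀.index = Nat.card Kb := by
    have h1 : N₀.index = O.relIndex K := rfl
    have h2 : π.ker.relIndex K = Nat.card (K.map π) := Subgroup.relIndex_ker K π
    rw [hOker, hKmap] at h2
    rw [h1, h2]
  have hcopN₀ : (Nat.card N₀).Coprime N₀.index := by
    rw [hN₀card, hN₀idx]
    exact Nat.Coprime.pow_left _ hKbcop.symm
  obtain ⟨H₀, hc⟩ := Subgroup.exists_right_complement'_of_coprime hcopN₀
  have hH₀card : Nat.card H₀ = Nat.card Kb := by
    rw [← hN₀idx]
    exact hc.symm.index_eq_card.symm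
  have hPC : IsPCompl p H₀ := by
    refine ⟨by rw [hH₀card]; exact hKbcop, o, ?_⟩
    rw [← hN₀card]
    exact hc.index_eq_card
  let H : Subgroup G := H₀.map K.subtype
  have hHle : H ≤ K := Subgroup.map_subtype_le H₀
  have hHcard : Nat.card H = Nat.card H₀ :=
    Nat.card_congr (H₀.equivMapOfInjective K.subtype K.subtype_injective).symm.toEquiv
  have hHcop : (Nat.card H).Coprime p := by
    rw [hHcard, hH₀card]
    exact hKbcop
  -- decomposition of elements of `K`
  have hdec : ∀ k : K, ∃ a ∈ O, ∃ b ∈ H, (k : G) = a * b := by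
    intro k
    have hk : k ∈ ((N₀ ⊔ H₀ : Subgroup K) : Set K) := by
      rw [hc.sup_eq_top]
      trivial
    rw [Subgroup.normal_mul] at hk
    obtain ⟨a, ha, b, hb, hab⟩ := Set.mem_mul.mp hk
    refine ⟨a, ha, b, ⟨b, hb, rfl⟩, ?_⟩
    rw [← hab]
    rfl
  have hπO : ∀ a ∈ O, π a = 1 := by
    intro a ha
    rw [← MonoidHom.mem_ker, hOker]
    exact ha
  have hHmap : H.map π = Kb := by
    apply le_antisymm
    · rintro _ ⟨h, hh, rfl⟩
      exact hHle hh
    · intro u hu
      obtain ⟨g, rfl⟩ := hπs u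
      obtain ⟨a, ha, b, hb, hab⟩ := hdec ⟨g, hu⟩
      refine ⟨b, hb, ?_⟩
      change g = a * b at hab
      rw [hab, map_mul, hπO a ha, one_mul]
  -- the Frattini argument
  have hFrat : ∀ g : G, ∃ y ∈ normalizer (H : Set G), π y = π g := by
    intro g
    let c : MulAut K := MulAut.conjNormal g
    let H₁ : Subgroup K := H₀.map c.toMonoidHom
    have hH₁ : IsPCompl p H₁ := by
      refine ⟨?_, ?_⟩
      · have : Nat.card H₁ = Nat.card H₀ :=
          Nat.card_congr (H₀.equivMapOfInjective c.toMonoidHom c.injective).symm.toEquiv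
        rw [this]
        exact hPC.1
      · obtain ⟨m, hm⟩ := hPC.2
        refine ⟨m, ?_⟩
        rw [← hm]
        exact Subgroup.index_map_equiv H₀ c
    obtain ⟨k, hk⟩ := exists_conj_eq hKsolv hPC hH₁
    have hcv : ∀ h : K, ((c h : K) : G) = g * h * g⁻¹ := fun h => by
      simp [c, MulAut.conjNormal_apply]
    set y₀ : G := (k : G)⁻¹ * g with hy₀
    have hy₀N : y₀ ∈ normalizer (H : Set G) := by
      rw [Subgroup.mem_normalizer_iff]
      intro n
      constructor
      · rintro ⟨h, hh, rfl⟩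
        have h1 : c h ∈ H₁ := ⟨h, hh, rfl⟩
        rw [hk] at h1
        obtain ⟨h', hh', hh'e⟩ := h1
        have h2 : (k : G) * h' * (k : G)⁻¹ = g * h * g⁻¹ := by
          rw [← hcv h, ← hh'e]
          simp [MulAut.conj_apply]
        refine ⟨h', hh', ?_⟩
        change (h' : G) = y₀ * h * y₀⁻¹
        rw [hy₀]
        calc (h' : G) = (k : G)⁻¹ * ((k : G) * h' * (k : G)⁻¹) * k := by group
          _ = (k : G)⁻¹ * (g * h * g⁻¹) * k := by rw [h2]
          _ = (k : G)⁻¹ * g * h * ((k : G)⁻¹ * g)⁻¹ := by group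
      · rintro ⟨h', hh', hh'e⟩
        have h1 : (MulAut.conj k).toMonoidHom h' ∈ H₁ := by
          rw [hk]
          exact ⟨h', hh', rfl⟩
        obtain ⟨h, hh, hhe⟩ := h1
        have h2 : g * h * g⁻¹ = (k : G) * h' * (k : G)⁻¹ := by
          calc g * h * g⁻¹ = ((c h : K) : G) := (hcv h).symm
            _ = (((MulAut.conj k).toMonoidHom h' : K) : G) := congrArg Subtype.val hhe
            _ = (k : G) * h' * (k : G)⁻¹ := rfl
        change (h' : G) = y₀ * n * y₀⁻¹ at hh'e
        have h3 : n = h := by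
          have h4 : y₀ * n * y₀⁻¹ = y₀ * h * y₀⁻¹ := by
            rw [← hh'e, hy₀]
            calc (h' : G) = (k : G)⁻¹ * ((k : G) * h' * (k : G)⁻¹) * k := by group
              _ = (k : G)⁻¹ * (g * h * g⁻¹) * k := by rw [h2]
              _ = (k : G)⁻¹ * g * h * ((k : G)⁻¹ * g)⁻¹ := by group
          have h5 := mul_left_cancel (mul_right_cancel h4)
          exact h5
        rw [h3]
        exact ⟨h, hh, rfl⟩
    obtain ⟨a, ha, b, hb, hab⟩ := hdec k
    have hbN : b ∈ normalizer (H : Set G) := Subgroup.le_normalizer hb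
    refine ⟨b * y₀, mul_mem hbN hy₀N, ?_⟩
    have h1 : g = a * (b * y₀) := by
      rw [← mul_assoc, ← hab, hy₀]
      group
    calc π (b * y₀) = π a * π (b * y₀) := by rw [hπO a ha, one_mul]
      _ = π (a * (b * y₀)) := (map_mul _ _ _).symm
      _ = π g := by rw [← h1]
  -- the Sylow subgroup
  let Nz : Subgroup G := normalizer (H : Set G)
  let f : Nz →* G ⧸ O := π.comp Nz.subtype
  have hfs : Function.Surjective f := by
    intro u
    obtain ⟨g, rfl⟩ := hπs u
    obtain ⟨y, hy, hye⟩ := hFrat g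
    exact ⟨⟨y, hy⟩, hye⟩
  let S : Sylow p Nz := default
  let S' : Sylow p (G ⧸ O) := S.mapSurjective hfs
  have hS'card : Nat.card S' = p ^ (O.index.factorization p) := S'.card_eq_multiplicity
  let Q : Subgroup G := (S : Subgroup Nz).map Nz.subtype
  have hQp : IsPGroup p Q := S.isPGroup'.map _
  have hQN : Q ≤ Nz := Subgroup.map_subtype_le _
  have hQmap : Q.map π = (S' : Subgroup (G ⧸ O)) := by
    change ((S : Subgroup Nz).map Nz.subtype).map π = (S : Subgroup Nz).map f
    rw [Subgroup.map_map]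
  have hQmapp : IsPGroup p (Q.map π) := hQp.map _
  refine ⟨H, Q, hHcop, hQp, hQN, ?_, ?_⟩
  · intro x hx hcomm
    have h1 : π x ∈ centralizer (Kb : Set (G ⧸ O)) := by
      rw [Subgroup.mem_centralizer_iff]
      intro m hm
      have hm' : m ∈ H.map π := by
        rw [hHmap]
        exact hm
      obtain ⟨h, hh, rfl⟩ := hm'
      rw [← map_mul, ← map_mul, hcomm h hh]
    have h2 : π x ∈ Kb := hcent h1
    have h3 : π x ∈ Q.map π := ⟨x, hx, rfl⟩
    obtain ⟨e, he⟩ := IsPGroup.iff_card.mp hQmapp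
    have h4 : Kb ⊓ Q.map π = ⊥ := by
      apply (Subgroup.disjoint_of_coprime_natCard _).eq_bot
      rw [he]
      exact Nat.Coprime.pow_right _ hKbcop
    have h5 : π x ∈ (⊥ : Subgroup (G ⧸ O)) := by
      rw [← h4]
      exact ⟨h2, h3⟩
    rw [Subgroup.mem_bot] at h5
    rw [← hOker, MonoidHom.mem_ker]
    exact h5
  · have h2 : π.ker.relIndex Q = Nat.card (Q.map π) := Subgroup.relIndex_ker Q π
    rw [hOker, hQmap] at h2
    rw [h2]
    exact hS'card

end Cfsg.Agent.Lib.CharDeep.Schur
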