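import Cfsg.Agent.Lib.CharDeep.Roquette.Bound
import Cfsg.Agent.Lib.Char.Galois
import Cfsg.Agent.Lib.OddChar.GaloisConj

/-!
# Galois orbits of characters of a finite group, in terms of power maps
-/

set_option autoImplicit false
set_option linter.unusedSectionVars false

namespace Cfsg.Agent.Lib.CharDeep.Schur

open Subgroup Cfsg Cfsg.Agent.Lib.Char.Basic Cfsg.Agent.Lib.Char.Ortho Cfsg.Agent.Lib.Char.Complete
  Cfsg.Agent.Lib.Char.Linear Cfsg.Agent.Lib.Char.Degree Cfsg.Agent.Lib.Char.Galois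
  Cfsg.Agent.Lib.CharDeep.Roquette Cfsg.Agent.Lib.OddChar.GaloisConj
open scoped ComplexConjugate

universe u

variable {P : Type u} [Group P] [Fintype P]

theorem fld_le_Kn {θ : P → ℂ} (hθ : IsCharacter P θ) : Fld θ ≤ Kn (Nat.card P) := by
  obtain ⟨m, ρ, rfl⟩ := hθ
  apply IntermediateField.adjoin_le_iff.mpr
  rintro _ ⟨g, rfl⟩
  exact character_mem_Kn ρ Nat.card_pos.ne' (pow_card_eq_one')

theorem finiteDimensional_fld {θ : P → ℂ} (hθ : IsCharacter P θ) :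
    FiniteDimensional ℚ (Fld θ) := by
  haveI : NeZero (Nat.card P) := ⟨Nat.card_pos.ne'⟩
  exact FiniteDimensional.of_injective
    (IntermediateField.inclusion (fld_le_Kn hθ)).toLinearMap
    (IntermediateField.inclusion (fld_le_Kn hθ)).toRingHom.injective

/-- Embeddings of the field of values act by power maps. -/
theorem exists_pow_of_algHom_fld {θ : P → ℂ} (hθ : IsCharacter P θ) (τ : Fld θ →ₐ[ℚ] ℂ) :
    ∃ k : ℕ, k.Coprime (Nat.card P) ∧ ∀ g, τ ⟨θ g, mem_Fld θ g⟩ = θ (g ^ k) := by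
  haveI hN : NeZero (Nat.card P) := ⟨Nat.card_pos.ne'⟩
  have h := fld_le_Kn hθ
  let L : IntermediateField ℚ (Kn (Nat.card P)) := IntermediateField.restrict h
  let f : L →ₐ[ℚ] ℂ := τ.comp (IntermediateField.restrictAlgEquiv h).symm.toAlgHom
  obtain ⟨φ, hφ⟩ := IntermediateField.exists_algHom_of_splits
    (F := ℚ) (E := Kn (Nat.card P)) (K := ℂ)
    (fun s => ⟨Algebra.IsIntegral.isIntegral s, IsAlgClosed.splits _⟩) f
  obtain ⟨k, hk, hz⟩ := exists_pow_of_algHom (Nat.card P) φ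
  refine ⟨k, hk, fun g => ?_⟩
  obtain ⟨m, ρ, rfl⟩ := hθ
  have h1 := algHom_character ρ (Nat.card_pos.ne') hz (g := g) pow_card_eq_one'
  rw [← h1]
  have hmem : (⟨ρ.character g, character_mem_Kn ρ Nat.card_pos.ne' pow_card_eq_one'⟩ :
      Kn (Nat.card P)) ∈ L := (IntermediateField.mem_restrict h _).mpr (mem_Fld _ g)
  have h2 := DFunLike.congr_fun hφ (⟨_, hmem⟩ : L)
  simp only [AlgHom.comp_apply] at h2
  have h3 : φ (L.val ⟨_, hmem⟩) = φ ⟨ρ.character g, character_mem_Kn ρ Nat.card_pos.ne' pow_card_eq_one'⟩ := rfl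
  rw [← h3, h2]
  have h4 : (IntermediateField.restrictAlgEquiv h).symm ⟨_, hmem⟩ = ⟨ρ.character g, mem_Fld _ g⟩ := by
    rw [AlgEquiv.symm_apply_eq]
    rfl
  have h6 : f ⟨_, hmem⟩ = τ ((IntermediateField.restrictAlgEquiv h).symm ⟨_, hmem⟩) := rfl
  have h7 : τ ((IntermediateField.restrictAlgEquiv h).symm ⟨_, hmem⟩) =
      τ ⟨ρ.character g, mem_Fld _ g⟩ := by rw [h4]
  exact (h6.trans h7).symm

open scoped Classical in
/-- The orbit of an irreducible character under the power maps. -/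
noncomputable def orbit [Fintype (IrrCharacter P)] (θ : IrrCharacter P) :
    Finset (IrrCharacter P) :=
  Finset.univ.filter (fun φ => ∃ k : ℕ, k.Coprime (Nat.card P) ∧ ∀ g, φ.1 g = θ.1 (g ^ k))

theorem mem_orbit [Fintype (IrrCharacter P)] (θ φ : IrrCharacter P) :
    φ ∈ orbit θ ↔ ∃ k : ℕ, k.Coprime (Nat.card P) ∧ ∀ g, φ.1 g = θ.1 (g ^ k) := by
  simp [orbit]

/-- The orbit has at least as many elements as the degree of the field of values. -/
theorem finrank_le_card_orbit [Fintype (IrrCharacter P)] (θ : IrrCharacter P) :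
    Module.finrank ℚ (Fld θ.1) ≤ (orbit θ).card := by
  classical
  have hc := isCharacter_of_isIrrCharacter θ.2
  haveI := finiteDimensional_fld hc
  rw [← AlgHom.card ℚ (Fld θ.1) ℂ, ← Fintype.card_coe (orbit θ)]
  have hex := exists_pow_of_algHom_fld hc
  choose K hKc hK using hex
  let F : (Fld θ.1 →ₐ[ℚ] ℂ) → orbit θ := fun τ =>
    ⟨⟨fun g => θ.1 (g ^ K τ), isIrrCharacter_pow (hKc τ) θ.2⟩,
      (mem_orbit θ _).mpr ⟨K τ, hKc τ, fun _ => rfl⟩⟩
  apply Fintype.card_le_of_injective F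
  intro τ τ' h
  have h2 : ∀ g, τ ⟨θ.1 g, mem_Fld θ.1 g⟩ = τ' ⟨θ.1 g, mem_Fld θ.1 g⟩ := by
    intro g
    rw [hK τ g, hK τ' g]
    exact congrArg (fun w : orbit θ => w.1.1 g) h
  apply AlgHom.coe_ringHom_injective
  let E : IntermediateField ℚ ℂ :=
    { carrier := {x | ∃ hx : x ∈ Fld θ.1, τ ⟨x, hx⟩ = τ' ⟨x, hx⟩}
      mul_mem' := by
        rintro a b ⟨ha, h1⟩ ⟨hb, h3⟩
        refine ⟨mul_mem ha hb, ?_⟩
        have h4 : (⟨a * b, mul_mem ha hb⟩ : Fld θ.1) = ⟨a, ha⟩ * ⟨b, hb⟩ := rfl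
        rw [h4, map_mul, map_mul, h1, h3]
      add_mem' := by
        rintro a b ⟨ha, h1⟩ ⟨hb, h3⟩
        refine ⟨add_mem ha hb, ?_⟩
        have h4 : (⟨a + b, add_mem ha hb⟩ : Fld θ.1) = ⟨a, ha⟩ + ⟨b, hb⟩ := rfl
        rw [h4, map_add, map_add, h1, h3]
      algebraMap_mem' := by
        intro q
        refine ⟨IntermediateField.algebraMap_mem _ q, ?_⟩
        have h4 : (⟨algebraMap ℚ ℂ q, IntermediateField.algebraMap_mem _ q⟩ : Fld θ.1) =
            ((q : ℚ) : Fld θ.1) := by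
          apply Subtype.ext
          simp
        rw [h4, map_ratCast, map_ratCast]
      inv_mem' := by
        rintro a ⟨ha, h1⟩
        refine ⟨inv_mem ha, ?_⟩
        have h4 : (⟨a⁻¹, inv_mem ha⟩ : Fld θ.1) = (⟨a, ha⟩ : Fld θ.1)⁻¹ := rfl
        rw [h4, map_inv₀, map_inv₀, h1] }
  have hE : Fld θ.1 ≤ E := by
    apply IntermediateField.adjoin_le_iff.mpr
    rintro _ ⟨g, rfl⟩
    exact ⟨mem_Fld θ.1 g, h2 g⟩
  ext ⟨x, hx⟩
  obtain ⟨_, h3⟩ := hE hx
  exact h3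

end Cfsg.Agent.Lib.CharDeep.Schur
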